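import Cfsg.Agent.GW.CharCLin
import Cfsg.Agent.Block.Klein
import Cfsg.Agent.Block.DefectNum
import Cfsg.Agent.Char.DihEight

/-!
# Gorenstein-Walter tower: a nilpotent block with Klein four defect group
-/

set_option autoImplicit false

namespace Cfsg.Lib.GW

open Subgroup Cfsg Cfsg.Lib.Known Cfsg.Lib.Trans Cfsg.Lib.Char Cfsg.Lib.Block
  Cfsg.Lib.Block.Princ Cfsg.Lib.Block.Lin
open scoped commutatorElement ComplexConjugate

universe u

/-! ### Hadamard matrices of order four -/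

section Comb

variable {I : Type*} (A : Finset I) (x : I → ℤ) (hx : ∀ i, 0 < x i)
include hx

theorem sign_of_sum_sq {d : I → ℤ} (h4 : ∑ i ∈ A, d i * d i = 4) (h0 : ∑ i ∈ A, x i * d i = 0)
    {i : I} (hi : i ∈ A) : d i = 0 ∨ d i = 1 ∨ d i = -1 := by
  classical
  by_contra hne
  have h1 : 4 ≤ d i * d i := by
    rcases (by omega : 2 ≤ d i ∨ d i ≤ -2) with h | h <;> nlinarith
  rw [← Finset.add_sum_erase _ _ hi] at h4 h0
  have h2 := Finset.sum_nonneg fun j (_ : j ∈ A.erase i) => mul_self_nonneg (d j)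
  have h3 := (Finset.sum_eq_zero_iff_of_nonneg fun j _ => mul_self_nonneg (d j)).1
    (show ∑ j ∈ A.erase i, d j * d j = 0 by omega)
  rw [Finset.sum_eq_zero fun j hj => by rw [mul_self_eq_zero.1 (h3 j hj), mul_zero], add_zero,
    mul_eq_zero] at h0
  have := hx i
  omega

theorem hadamard {d e f : I → ℤ} (hd : ∑ i ∈ A, d i * d i = 4) (he : ∑ i ∈ A, e i * e i = 4)
    (hf : ∑ i ∈ A, f i * f i = 4) (hde : ∑ i ∈ A, d i * e i = 0) (hdf : ∑ i ∈ A, d i * f i = 0)
    (hef : ∑ i ∈ A, e i * f i = 0) (hxd : ∑ i ∈ A, x i * d i = 0) (hxe : ∑ i ∈ A, x i * e i = 0)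
    (hxf : ∑ i ∈ A, x i * f i = 0) (h1 : ∀ i ∈ A, 2 ∣ e i - d i) (h2 : ∀ i ∈ A, 2 ∣ f i - e i) :
    ∃ y : ℤ, y ≠ 0 ∧
      ∑ i ∈ A, (((d i + e i + f i) * (d i + e i + f i) : ℤ) : ℂ) / x i * d i = 8 / y := by
  classical
  have hs : ∀ i ∈ A, (d i = 0 ∧ e i = 0 ∧ f i = 0) ∨
      ((d i = 1 ∨ d i = -1) ∧ (e i = 1 ∨ e i = -1) ∧ (f i = 1 ∨ f i = -1)) := fun i hi => by
    have := sign_of_sum_sq A x hx hd hxd hi
    have := sign_of_sum_sq A x hx he hxe hi
    have := sign_of_sum_sq A x hx hf hxf hi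
    have := h1 i hi
    have := h2 i hi
    omega
  set C := ∑ j ∈ A, x j * (d j * e j * f j) with hC
  have key : ∀ i ∈ A, d i ≠ 0 → 4 * x i = d i * e i * f i * C := fun i hi hi0 => by
    let T : I → ℤ := fun j => (d i * d j + e i * e j) * (d i * d j + f i * f j)
    obtain ⟨hi1, hi2, hi3⟩ := (hs i hi).resolve_left fun h => hi0 h.1
    have hT : ∀ j ∈ A, 0 ≤ T j := fun j hj => by
      rcases hs j hj with ⟨a, b, c⟩ | ⟨a | a, b | b, c | c⟩ <;> rcases hi1 with a' | a' <;>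
        rcases hi2 with b' | b' <;> rcases hi3 with c' | c' <;> simp [T, a, b, c, a', b', c']
    have hTi : T i = 4 := by
      rcases hi1 with a' | a' <;> rcases hi2 with b' | b' <;> rcases hi3 with c' | c' <;>
        simp [T, a', b', c']
    have hdi : d i * d i = 1 := by rcases hi1 with a | a <;> simp [a]
    have hS : ∑ j ∈ A, T j = 4 := by
      rw [Finset.sum_congr rfl fun j _ => show T j = d i * d i * (d j * d j) +
        d i * f i * (d j * f j) + d i * e i * (d j * e j) + e i * f i * (e j * f j) by ring]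
      simp only [Finset.sum_add_distrib, ← Finset.mul_sum, hd, hdf, hde, hef, hdi]
      ring
    rw [← Finset.add_sum_erase _ _ hi, hTi, add_eq_left, Finset.sum_eq_zero_iff_of_nonneg
      fun j hj => hT j (Finset.mem_of_mem_erase hj)] at hS
    have h3 : ∑ j ∈ A, x j * d j * T j = x i * d i * 4 := by
      rw [← Finset.add_sum_erase _ _ hi, hTi, Finset.sum_eq_zero fun j hj => by
        rw [hS j hj, mul_zero], add_zero]
    rw [Finset.sum_congr rfl fun j hj => show x j * d j * T j = d i * d i * (x j * d j) +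
        d i * f i * (x j * f j) + d i * e i * (x j * e j) + e i * f i * (x j * (d j * e j * f j))
        by
          rcases hs j hj with ⟨a, b, c⟩ | ⟨a | a, -⟩
          · simp only [T, a, b, c]; ring
          · simp only [T, a]; ring
          · simp only [T, a]; ring] at h3
    simp only [Finset.sum_add_distrib, ← Finset.mul_sum, hxd, hxe, hxf, ← hC] at h3
    linear_combination -d i * h3 - 4 * x i * hdi
  obtain ⟨i, hi, hi0⟩ : ∃ i ∈ A, d i ≠ 0 := by
    by_contra h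
    push Not at h
    rw [Finset.sum_eq_zero fun j hj => by rw [h j hj, mul_zero]] at hd
    omega
  set ε := d i * e i * f i with hε
  have hsg : ∀ j ∈ A, d j ≠ 0 → d j * e j * f j = 1 ∨ d j * e j * f j = -1 := fun j hj hj0 => by
    rcases hs j hj with ⟨a, -⟩ | ⟨a | a, b | b, c | c⟩ <;> simp_all
  have hj : ∀ j ∈ A, d j ≠ 0 → x j = x i ∧ d j * e j * f j = ε := fun j hj hj0 => by
    have k1 := key i hi hi0
    have k2 := key j hj hj0
    have := hx i
    have := hx j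
    rw [hε]
    rcases hsg i hi hi0 with a | a <;> rcases hsg j hj hj0 with b | b <;>
      rw [a] at k1 ⊢ <;> rw [b] at k2 ⊢ <;> omega
  have hx0 := (hx i).ne'
  have hz : ∀ {g : I → ℤ}, (∀ j ∈ A, d j = 0 → g j = 0) → ∑ j ∈ A, x j * g j = 0 →
      ∑ j ∈ A, g j = 0 := fun {g} h h' => by
    refine mul_left_cancel₀ hx0 ?_
    rw [mul_zero, Finset.mul_sum, ← h']
    refine Finset.sum_congr rfl fun j hj' => ?_
    by_cases h0 : d j = 0
    · rw [h j hj' h0, mul_zero, mul_zero]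
    · rw [(hj j hj' h0).1]
  have hε2 : ε * ε = 1 := by rcases hsg i hi hi0 with a | a <;> simp [hε, a]
  refine ⟨ε * x i, mul_ne_zero (by rintro h; simp [h] at hε2) hx0, ?_⟩
  have h5 : ∑ j ∈ A, (d j + e j + f j) * (d j + e j + f j) * d j = 8 * ε := by
    rw [Finset.sum_congr rfl fun j hj' => show (d j + e j + f j) * (d j + e j + f j) * d j =
      3 * d j + 2 * e j + 2 * f j + 2 * ε * (d j * d j) by
        rcases hs j hj' with ⟨a, b, c⟩ | ⟨a, b, c⟩
        · simp [a, b, c]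
        · rw [← (hj j hj' (by omega)).2]
          rcases a with a | a <;> rcases b with b | b <;> rcases c with c | c <;> simp [a, b, c]]
    simp only [Finset.sum_add_distrib, ← Finset.mul_sum, hd, hz (fun _ _ h => h) hxd,
      hz (fun j hj h => by have := hs j hj; omega) hxe,
      hz (fun j hj h => by have := hs j hj; omega) hxf]
    ring
  rw [Finset.sum_congr rfl fun j hj' => show
    (((d j + e j + f j) * (d j + e j + f j) : ℤ) : ℂ) / x j * d j =
      (((d j + e j + f j) * (d j + e j + f j) * d j : ℤ) : ℂ) / x i by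
      by_cases h0 : d j = 0
      · simp [h0]
      · rw [(hj j hj' h0).1]; push_cast; ring, ← Finset.sum_div, ← Int.cast_sum, h5]
  have h6 : (ε : ℂ) * ε = 1 := by exact_mod_cast hε2
  have h7 : (x i : ℂ) ≠ 0 := by exact_mod_cast hx0
  have h8 : (ε : ℂ) ≠ 0 := left_ne_zero_of_mul_eq_one h6
  push_cast
  field_simp
  linear_combination h6

end Comb

theorem sum_mul_lin {X ι : Type*} [Group X] [Fintype X] [Fintype ι] {l : ι → X →* ℂˣ}
    (hl : Function.Injective l) (c : ι → ℂ) (j : ι) :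
    ∑ x, (∑ i, c i * l i x) * l j x⁻¹ = Nat.card X * c j := by
  classical
  simp only [Finset.sum_mul, mul_assoc]
  rw [Finset.sum_comm, Finset.sum_eq_single j]
  · simp [lin_mul_inv, Nat.card_eq_fintype_card]
  · intro i _ hi
    rw [← Finset.mul_sum, ← mul_zero (c i), ← sum_hom_units_eq_zero
      ((Units.coeHom ℂ).comp (l i * (l j)⁻¹)) fun h => hi (hl (MonoidHom.ext fun x => by
        exact mul_inv_eq_one.1 (Units.val_eq_one.1 (DFunLike.congr_fun h x))))]
    simp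
  · simp

theorem lin_indep {X ι : Type*} [Group X] [Finite X] [Fintype ι] {l : ι → X →* ℂˣ}
    (hl : Function.Injective l) {c c' : ι → ℂ}
    (h : ∀ x, ∑ i, c i * l i x = ∑ i, c' i * l i x) (j : ι) : c j = c' j := by
  have := Fintype.ofFinite X
  refine mul_left_cancel₀ (card_ne_zero X) ?_
  rw [← sum_mul_lin hl, ← sum_mul_lin hl]
  simp only [h]

variable {G : Type u} [Group G] [Finite G] {M : Ideal AlgInt}

namespace Setup

variable {σ : Setup G}

/-- The inclusion of `C_U(a)` in `C(t)`. -/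
abbrev ιB (σ : Setup G) : BB σ.t σ.a →* C1 σ.t := inclusion (inf_le_left.trans (UU_le _))

/-- Three linear characters of `C(t)` permuted by an element of order three. -/
structure Tri (σ : Setup G) (n : G) (β : ZMod 3 → C1 σ.t →* ℂˣ) : Prop where
  m_eq : σ.m = 2
  conj_t : n * σ.t * n⁻¹ = σ.a
  conj_a : n * σ.a * n⁻¹ = σ.t * σ.a
  triv : ∀ (i : ZMod 3) (s : C1 σ.t), (s : G) ∈ (σ.S : Subgroup G) → β i s = 1
  step : ∀ (i : ZMod 3) (c c' : C1 σ.t), (c : G) ∈ BB σ.t σ.a → (c' : G) = n * c * n⁻¹ →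
    β (i + 1) c = β i c'
  inj : Function.Injective fun i => (β i).comp σ.ιB

theorem S_eq_four (hm : σ.m = 2) : (σ.S : Subgroup G) = four σ.t σ.a := by
  rw [σ.hS, σ.b_eq_of_m hm, ← σ.four_a.comm, four_mul, four_comm]

theorem conj_mem_BB {n c : G} (hn : n ∈ normalizer (four σ.t σ.a : Set G))
    (hc : c ∈ BB σ.t σ.a) : n * c * n⁻¹ ∈ BB σ.t σ.a :=
  (mem_normalizer_iff.1 (σ.dih2.normalizer_four_le σ.four_a hn) c).1 hc

namespace Tri

variable {n : G} {β : ZMod 3 → C1 σ.t →* ℂˣ} (h : Tri σ n β) (hM : IsPModular 2 M)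
  {B : Set (IrrCharacter G)} (hB : IsInducedBlock M (C1 σ.t) (linBlock M (β 0)) B)
include h

theorem mem_norm : n ∈ normalizer (four σ.t σ.a : Set G) :=
  mem_normalizer_four σ.four_a h.conj_t h.conj_a

include hM hB

theorem induced (i : ZMod 3) : IsInducedBlock M (C1 σ.t) (linBlock M (β i)) B := by
  have key : ∀ i, IsInducedBlock M (C1 σ.t) (linBlock M (β (i + 1))) B →
      IsInducedBlock M (C1 σ.t) (linBlock M (β i)) B := fun i hi =>
    isInducedBlock_of_conj hM hi (isPGroup_four σ.four_a) (left_mem_four _ _)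
      ((four_le_C1 σ.four_a).trans inf_le_left) h.mem_norm
      (lin_conj_of_BB (h.triv _) (h.triv _) fun c c' h1 h2 => (h.step i c c' h1 h2).symm)
  fin_cases i
  exacts [hB, key 1 (key 2 hB), key 2 hB]

theorem sum_indSet (f : IrrCharacter (C1 σ.t) → ℂ) :
    ∑ ξ ∈ irrFin (indSet M σ.t B), f ξ = ∑ i, ∑ ξ ∈ irrFin (linBlock M (β i)), f ξ := by
  classical
  rw [← Finset.sum_biUnion]
  · refine Finset.sum_congr (Finset.ext fun ξ => ?_) fun _ _ => rfl
    simp only [mem_irrFin, Finset.mem_biUnion, Finset.mem_univ, true_and]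
    refine ⟨fun hξ => ?_, fun ⟨i, hξ⟩ => ?_⟩
    · rcases indSet_subset hM h.m_eq h.conj_t h.conj_a (h.triv 0) (h.triv 1) (h.triv 2) (h.step 0)
        (fun c c' hc hc' => (h.step 1 c ⟨_, UU_le _ (conj_mem_BB h.mem_norm hc).1⟩ hc rfl).trans
          (h.step 0 _ c' (conj_mem_BB h.mem_norm hc) (by rw [hc', pow_two]; group))) hB hξ
        with h1 | h1 | h1
      exacts [⟨0, h1⟩, ⟨1, h1⟩, ⟨2, h1⟩]
    · change IsInducedBlock M _ (blockOf M _) _
      rw [blockOf_eq_of_mem hM (isPBlock_linBlock _) hξ]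
      exact h.induced hM hB i
  · intro i _ j _ hij
    refine Finset.disjoint_left.2 fun ξ h1 h2 => hij (h.inj (MonoidHom.ext fun c => ?_))
    exact eq_of_linBlock_eq hM σ.exists_index_core (Princ.block_eq_of_mem hM (isPBlock_linBlock _)
      (isPBlock_linBlock _) (mem_irrFin.1 h1) (mem_irrFin.1 h2)) (mem_core_iff.2 c.2.1)

theorem blockPart_eq {ϑ : G → ℂ} (hϑ : IsClassFunction G ϑ) (c : BB σ.t σ.a) :
    blockPart B ϑ (σ.t * c) = ∑ i, blockPart (linBlock M (β i)) (fun c : C1 σ.t => ϑ c)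
      ⟨σ.t, self_mem_C1 _⟩ * (β i).comp σ.ιB c := by
  have := Fintype.ofFinite (C1 σ.t)
  have h1 := blockPart_res hM hB.2.1 hϑ (⟨σ.t, self_mem_C1 _⟩ * σ.ιB c)
    (mem_zpowers_mul_cO σ.ht (self_mem_C1 _) (mem_zpowers _) c.2.1)
  rw [blockPart_apply (indSet M σ.t B), h.sum_indSet hM hB] at h1
  refine h1.trans (Finset.sum_congr rfl fun i _ => ?_)
  rw [blockPart_apply, Finset.sum_mul]
  refine Finset.sum_congr rfl fun ξ hξ => ?_
  rw [ξ.2.isClassFunction.apply_mul_comm, apply_mul_of_mem_linBlock hM (mem_irrFin.1 hξ) c.2.1]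
  exact (mul_left_comm _ _ _).trans (mul_comm _ _)

theorem exists_dec : ∃ d : ZMod 3 → IrrCharacter G → ℤ, ∀ χ ∈ B, ∀ c : BB σ.t σ.a,
    (χ : G → ℂ) (σ.t * c) = ∑ i, (d i χ : ℂ) * (β i).comp σ.ιB c := by
  have h1 : ∀ (i : ZMod 3) (χ : IrrCharacter G), ∃ d : ℤ, blockPart (linBlock M (β i))
      (fun c : C1 σ.t => (χ : G → ℂ) c) ⟨σ.t, self_mem_C1 _⟩ = d := fun i χ =>
    (isCharacter_blockPart (χ.2.isCharacter.res _)).exists_int_of_mul_self
      (by rw [Subgroup.orderOf_mk, σ.ht])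
  choose d hd using h1
  refine ⟨d, fun χ hχ c => ?_⟩
  rw [← blockPart_irr_of_mem hχ, h.blockPart_eq hM hB χ.2.isClassFunction]
  simp only [hd]

variable {d : ZMod 3 → IrrCharacter G → ℤ} (hd : ∀ χ ∈ B, ∀ c : BB σ.t σ.a,
    (χ : G → ℂ) (σ.t * c) = ∑ i, (d i χ : ℂ) * (β i).comp σ.ιB c)
include hd

omit hM hB in
theorem sum_mul_dec (w : IrrCharacter G → ℂ) {v : ZMod 3 → ℂ}
    (hv : ∀ c : BB σ.t σ.a, ∑ χ ∈ irrFin B, w χ * (χ : G → ℂ) (σ.t * c) =
      ∑ i, v i * (β i).comp σ.ιB c) (i : ZMod 3) : ∑ χ ∈ irrFin B, w χ * d i χ = v i := by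
  refine lin_indep h.inj (c := fun i => ∑ χ ∈ irrFin B, w χ * d i χ) (fun c => ?_) i
  rw [← hv]
  simp only [Finset.sum_mul]
  rw [Finset.sum_comm]
  refine Finset.sum_congr rfl fun χ hχ => ?_
  rw [hd χ (mem_irrFin.1 hχ), Finset.mul_sum]
  simp only [mul_assoc]

theorem orth (i j : ZMod 3) : ∑ χ ∈ irrFin B, d i χ * d j χ = if i = j then 4 else 0 := by
  have hodd : ∀ c : BB σ.t σ.a, ¬ 2 ∣ orderOf (σ.ιB c) := fun c =>
    not_dvd_orderOf_of_mem_pPrimeCore (mem_core_iff.2 c.2.1)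
  have h1 : ∀ c' : BB σ.t σ.a, ∑ χ ∈ irrFin B, conj ((χ : G → ℂ) (σ.t * c')) * d i χ =
      4 * conj ((β i).comp σ.ιB c' : ℂ) := fun c' =>
    h.sum_mul_dec hd _ (v := fun i => 4 * conj ((β i).comp σ.ιB c' : ℂ)) (fun c => by
      have h2 := sum_mul_conj_section hM ⟨1, by rw [σ.ht, pow_one]⟩ hB.2.1 (hodd c) (hodd c')
      rw [h.sum_indSet hM hB] at h2
      refine (Finset.sum_congr rfl fun _ _ => mul_comm _ _).trans (h2.trans ?_)
      refine Finset.sum_congr rfl fun i _ => ?_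
      have h3 := sum_princ_regular_of_index hM σ.exists_index_core (hodd c) (hodd c')
      rw [σ.index_core, h.m_eq] at h3
      rw [sum_linBlock hM, show (4 : ℂ) = ((2 * 2 : ℕ) : ℂ) by norm_num, ← h3, Finset.sum_mul,
        Finset.sum_mul]
      refine Finset.sum_congr rfl fun ξ _ => ?_
      rw [twI_apply, twI_apply, map_mul, MonoidHom.comp_apply, MonoidHom.comp_apply]
      ring) i
  have h2 := h.sum_mul_dec hd (fun χ => d i χ) (v := fun j => if i = j then 4 else 0) (fun c => by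
    have h3 := congrArg conj (h1 c)
    simp only [map_sum, map_mul, Complex.conj_conj, map_intCast, map_ofNat] at h3
    simp only [ite_mul, zero_mul, Finset.sum_ite_eq, Finset.mem_univ, if_true, ← h3, mul_comm]) j
  apply Int.cast_injective (α := ℂ)
  push_cast
  exact h2

theorem degree (i : ZMod 3) : ∑ χ ∈ irrFin B, (charDegree (χ : G → ℂ) : ℤ) * d i χ = 0 := by
  have h1 := h.sum_mul_dec hd (fun χ => (χ : G → ℂ) 1) (v := 0) (fun c => by
    have h2 := (isUnionOfBlocks_of_isPBlock hM hB.2.1).sum_mul_conj_eq_zero hM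
      (isPPart_mul_coe (y := σ.ιB c) ⟨1, by rw [σ.ht, pow_one]⟩
        (not_dvd_orderOf_of_mem_pPrimeCore (mem_core_iff.2 c.2.1)))
      (isPPart_self Nat.prime_two (x := (1 : G)) ⟨0, by simp⟩)
      fun h => σ.four_a.a_ne (isConj_one_left.1 h)
    simp only [conj_apply_one] at h2
    simpa [mul_comm] using h2) i
  apply Int.cast_injective (α := ℂ)
  push_cast
  simpa only [irr_charDegree_cast, Pi.zero_apply] using h1

theorem pair (i : ZMod 3) :
    ∑ χ ∈ irrFin B, conj ((χ : G → ℂ) σ.t * (χ : G → ℂ) σ.t / (χ : G → ℂ) 1) * d i χ =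
      ∑ χ ∈ irrFin (principalBlock M G),
        conj ((χ : G → ℂ) σ.t * (χ : G → ℂ) σ.t / (χ : G → ℂ) 1) * (χ : G → ℂ) σ.t := by
  have := Fintype.ofFinite G
  refine h.sum_mul_dec hd _ (v := fun _ => _) (fun c => mul_left_cancel₀ (card_ne_zero G) ?_) i
  rw [← blockPart_prodCount, h.blockPart_eq hM hB (isClassFunction_prodCount _ _), Finset.mul_sum]
  refine Finset.sum_congr rfl fun i _ => ?_
  rw [blockPart_linBlock_eq_princ hM (isClassFunction_prodCount _ _) _ (h.triv i _ σ.t_mem)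
    (mem_zpowers _) fun c hc hc' => lin_eq_one_of_prodCount (h.triv i) hc hc',
    blockPart_prodCount, mul_assoc]

omit hB in
theorem parity {χ : IrrCharacter G} (hχ : χ ∈ B) (i : ZMod 3) : 2 ∣ d (i + 1) χ - d i χ := by
  have := Fintype.ofFinite (BB σ.t σ.a)
  have h1 : ∀ c : BB σ.t σ.a, vM M ((χ : G → ℂ) (σ.t * c) - (χ : G → ℂ) c) < 1 := fun c => by
    have := vM_char_sub_of_isPPart hM χ.2.isCharacter
      (isPPart_mul_coe (y := σ.ιB c) ⟨1, by rw [σ.ht, pow_one]⟩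
        (not_dvd_orderOf_of_mem_pPrimeCore (mem_core_iff.2 c.2.1)))
    rwa [inv_mul_cancel_left] at this
  have h2 : ∀ c : BB σ.t σ.a,
      vM M (∑ j, ((d j χ : ℂ) - d (j - 1) χ) * (β j).comp σ.ιB c) < 1 := fun c => by
    have h3 := (vM M).map_sub_lt (h1 c) (h1 ⟨_, conj_mem_BB h.mem_norm c.2⟩)
    rw [χ.2.isClassFunction, sub_sub_sub_cancel_right, hd χ hχ, hd χ hχ,
      ← Equiv.sum_comp (Equiv.subRight 1) fun j => (d j χ : ℂ) *
        (β j).comp σ.ιB ⟨_, conj_mem_BB h.mem_norm c.2⟩, ← Finset.sum_sub_distrib] at h3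
    convert h3 using 3 with j
    rw [sub_mul, Equiv.subRight_apply, MonoidHom.comp_apply, MonoidHom.comp_apply,
      ← h.step (j - 1) (σ.ιB c) (σ.ιB ⟨_, conj_mem_BB h.mem_norm c.2⟩) c.2 rfl, sub_add_cancel]
  have h3 : vM M (∑ c : BB σ.t σ.a, (∑ j, ((d j χ : ℂ) - d (j - 1) χ) * (β j).comp σ.ιB c) *
      (β (i + 1)).comp σ.ιB c⁻¹) < 1 := (vM M).map_sum_lt one_ne_zero fun c _ => by
    rw [map_mul, vM_lin, mul_one]; exact h2 c
  rw [sum_mul_lin h.inj, add_sub_cancel_right, map_mul, (vM_natCast_eq_one_iff hM _).2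
    (Nat.two_dvd_ne_zero.2 (Nat.odd_iff.1 (odd_card_BB _ _))), one_mul, ← Int.cast_sub,
    vM_intCast_lt_one_iff hM] at h3
  exact h3

end Tri

variable [IsSimpleGroup G]

theorem Tri.dvd_J (hna : ¬ IsMulCommutative G) {n : G} {β : ZMod 3 → C1 σ.t →* ℂˣ}
    (h : Tri σ n β) {r : ℕ} (hr : r.Prime) (hr2 : r ≠ 2) (hk : r ∣ σ.k₁ + σ.k₂) : r ∣ σ.J := by
  obtain ⟨M, hM⟩ := exists_isPModular Nat.prime_two
  obtain ⟨B, hB⟩ := exists_induced hM (β 0)
  obtain ⟨d, hd⟩ := h.exists_dec hM hB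
  have ho := h.orth hM hB hd
  obtain ⟨y, hy0, hy⟩ := hadamard (irrFin B) (fun χ => (charDegree (χ : G → ℂ) : ℤ))
    (fun χ => by exact_mod_cast irr_charDegree_pos χ) (ho 0 0) (ho 1 1) (ho 2 2) (ho 0 1) (ho 0 2)
    (ho 1 2) (h.degree hM hB hd 0) (h.degree hM hB hd 1) (h.degree hM hB hd 2)
    (fun χ hχ => h.parity hM hd (mem_irrFin.1 hχ) 0) fun χ hχ => h.parity hM hd (mem_irrFin.1 hχ) 1
  have hS := S_eq_four h.m_eq
  have h1 := klein_order hM σ.S (by rw [hS]; exact σ.four_a.card_four)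
    (fun x => Subtype.ext (σ.four_a.mul_self (hS ▸ x.2)))
    (fun s t hs ht => isConj_iff.2 (σ.dih2.isConj hna hs ht)) σ.t_mem σ.ht
  rw [← h.pair hM hB hd 0, Finset.sum_congr rfl fun (χ : IrrCharacter G) hχ => show
      conj ((χ : G → ℂ) σ.t * (χ : G → ℂ) σ.t / (χ : G → ℂ) 1) * d 0 χ =
      (((d 0 χ + d 1 χ + d 2 χ) * (d 0 χ + d 1 χ + d 2 χ) : ℤ) : ℂ) /
        ((charDegree (χ : G → ℂ) : ℤ) : ℂ) * d 0 χ by
      have h2 := hd χ (mem_irrFin.1 hχ) 1
      simp only [coe_one, mul_one, map_one, Units.val_one] at h2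
      rw [h2, show (∑ i, (d i χ : ℂ)) = d 0 χ + d 1 χ + d 2 χ from Fin.sum_univ_three _,
        ← irr_charDegree_cast]
      simp, hy, hS, centralizer_four, σ.dih2.card_inf_C1 σ.four_a, σ.card_eq, σ.card_C1,
    h.m_eq] at h1
  have h2 := σ.two_mul_kk σ.four_a
  have h3 := σ.two_mul_kk σ.four_b
  rw [σ.b_eq_of_m h.m_eq, σ.dih2.BB_mul σ.four_a, ← σ.b_eq_of_m h.m_eq, ← h2] at h3
  rw [h.m_eq] at h2
  have h4 : Nat.card (UU σ.t) = Nat.card (BB σ.t σ.a) * σ.k₁ := by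
    rw [show σ.k₁ = _ from Nat.eq_of_mul_eq_mul_left two_pos h2, relIndex,
      ← Nat.card_congr (subgroupOfEquivOfLe (inf_le_left : BB σ.t σ.a ≤ UU σ.t)).toEquiv,
      card_mul_index]
  have h5 : (y : ℂ) ≠ 0 := by exact_mod_cast hy0
  have h6 : (Nat.card (BB σ.t σ.a) : ℂ) ≠ 0 := card_ne_zero _
  have h7 : (σ.k₁ : ℂ) ≠ 0 := right_ne_zero_of_mul (by
    rw [← Nat.cast_mul, ← h4]; exact card_ne_zero _ : (Nat.card (BB σ.t σ.a) : ℂ) * σ.k₁ ≠ 0)
  rw [h4] at h1
  push_cast at h1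
  field_simp at h1
  have h8 : (σ.J : ℤ) = σ.k₁ * (σ.k₁ * y) := by
    apply Int.cast_injective (α := ℂ)
    push_cast
    linear_combination h1
  rw [show σ.k₂ = σ.k₁ from Nat.eq_of_mul_eq_mul_left two_pos h3, ← two_mul] at hk
  have h9 := (hr.dvd_mul.1 hk).resolve_left fun h =>
    hr2 ((Nat.prime_dvd_prime_iff_eq hr Nat.prime_two).1 h)
  exact h9.trans (Int.natCast_dvd_natCast.1 ⟨_, h8⟩)

end Setup

/-- The hypothesis of the second character theorem gives a non-principal block that looks like the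
principal one, or directly the conclusion. -/
theorem HypC.exists_pLike_or [IsSimpleGroup G] {σ : Setup G} (hna : ¬ IsMulCommutative G)
    (hM : IsPModular 2 M) (h : HypC σ) : (∃ B, PLike M σ B ∧ triv G ∉ B) ∨
      ∀ r : ℕ, r.Prime → r ≠ 2 → r ∣ σ.k₁ + σ.k₂ → r ∣ σ.J := by
  rcases h with h | ⟨hm, hK, hB⟩
  · exact Or.inl (σ.exists_pLike_of_ne hna hM h)
  obtain ⟨l, hl⟩ : ∃ l : BB σ.t σ.a →* ℂˣ, l ≠ 1 := by
    have := σ.dih2.isSolvable_C1 σ.ht
    have := Group.isSolvable_of_isSolvable_injective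
      (inclusion_injective _ : Function.Injective σ.ιB)
    have := (nontrivial_iff_ne_bot _).2 hB
    obtain ⟨x, -, hx⟩ := SetLike.exists_of_lt
      (Group.IsSolvable.commutator_lt_top_of_nontrivial (BB σ.t σ.a))
    obtain ⟨l, hl⟩ := exists_monoidHom_apply_ne_one_of_comm (g := Abelianization.of x) mul_comm
      fun h => hx ((Abelianization.ker_of (BB σ.t σ.a)).le h)
    exact ⟨l.comp Abelianization.of, fun h => hl (DFunLike.congr_fun h x)⟩
  obtain ⟨n, hn1, hn2⟩ := σ.dih2.exists_cyc hna σ.four_a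
  have hn := Setup.mem_normalizer_four σ.four_a hn1 hn2
  let φ : BB σ.t σ.a →* BB σ.t σ.a := MonoidHom.mk'
    (fun c => ⟨n * c * n⁻¹, Setup.conj_mem_BB hn c.2⟩) fun a b => Subtype.ext (by simp [mul_assoc])
  obtain ⟨β₀, h₀, e₀⟩ := σ.exists_lin_ext hK l
  obtain ⟨β₁, h₁, e₁⟩ := σ.exists_lin_ext hK (l.comp φ)
  obtain ⟨β₂, h₂, e₂⟩ := σ.exists_lin_ext hK ((l.comp φ).comp φ)
  have h3 : ((l.comp φ).comp φ).comp φ = l := MonoidHom.ext fun c => by
    have h4 : n * n * n ∈ C1 σ.t := mem_C1_iff_conj.2 (by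
      calc n * n * n * σ.t * (n * n * n)⁻¹ = n * (n * (n * σ.t * n⁻¹) * n⁻¹) * n⁻¹ := by group
        _ = n * (σ.t * σ.a) * n⁻¹ := by rw [hn1, hn2]
        _ = n * σ.t * n⁻¹ * (n * σ.a * n⁻¹) := by group
        _ = σ.t := by rw [hn1, hn2, ← mul_assoc, σ.four_a.comm, mul_assoc, σ.four_a.sq_b, mul_one])
    rw [← e₀ c, ← lin_conj β₀ ⟨_, h4⟩]
    exact (e₀ (φ (φ (φ c)))).symm.trans (congrArg β₀ (Subtype.ext (by simp [φ, mul_assoc])))
  have hstep : ∀ {β β' : C1 σ.t →* ℂˣ} {l : BB σ.t σ.a →* ℂˣ}, (∀ c, β (σ.ιB c) = l c) →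
      (∀ c, β' (σ.ιB c) = l.comp φ c) → ∀ c c' : C1 σ.t, (c : G) ∈ BB σ.t σ.a →
      (c' : G) = n * c * n⁻¹ → β' c = β c' := fun e e' c c' hc hc' =>
    (e' ⟨c, hc⟩).trans ((e (φ ⟨c, hc⟩)).symm.trans (congrArg _ (Subtype.ext hc'.symm)))
  by_cases h01 : l.comp φ = l
  · refine Or.inl (σ.exists_pLike_of_linInv hna hM (fun h => hl (MonoidHom.ext fun c => by
      rw [← e₀, h]; rfl)) h₀ fun w hw r hr c c' hc hc' => ?_)
    obtain ⟨hr, hc⟩ : r ∈ normalizer (four σ.t σ.a : Set G) ∧ (c : G) ∈ BB σ.t σ.a := by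
      rcases hw with rfl | rfl
      · exact ⟨hr, hc⟩
      · rw [σ.b_eq_of_m hm] at hr hc
        rw [four_mul] at hr
        exact ⟨hr, σ.dih2.BB_mul σ.four_a ▸ hc⟩
    have h4 : ∀ (k : ℕ) (c c' : C1 σ.t), (c : G) ∈ BB σ.t σ.a →
        (c' : G) = n ^ k * c * (n ^ k)⁻¹ → β₀ c' = β₀ c := fun k => by
      induction k with
      | zero => exact fun c c' _ h => congrArg _ (Subtype.ext (by simpa using h))
      | succ k ih =>
        refine fun c c' hc h => (ih ⟨_, UU_le _ (Setup.conj_mem_BB hn hc).1⟩ c'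
          (Setup.conj_mem_BB hn hc) (by rw [h, pow_succ]; group)).trans ?_
        exact (hstep e₀ (fun c => by rw [h01]; exact e₀ c) c _ hc rfl).symm
    obtain ⟨k, hk⟩ : ∃ k : ℕ, r * σ.t * r⁻¹ = n ^ k * σ.t * (n ^ k)⁻¹ := by
      rcases σ.four_a.mem_iff.1 ((mem_normalizer_iff.1 hr _).1 (left_mem_four _ _))
        with h | h | h | h
      · exact absurd (by simpa using h) σ.four_a.a_ne
      · exact ⟨0, by simpa using h⟩
      · exact ⟨1, by rw [h, pow_one, hn1]⟩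
      · exact ⟨2, by rw [h, ← hn2, ← hn1, pow_two]; group⟩
    have h5 : (n ^ k)⁻¹ * r ∈ C1 σ.t := mem_C1_iff_conj.2 (by
      rw [show (n ^ k)⁻¹ * r * σ.t * ((n ^ k)⁻¹ * r)⁻¹ = (n ^ k)⁻¹ * (r * σ.t * r⁻¹) * n ^ k by
        group, hk]; group)
    rw [← lin_conj β₀ ⟨_, h5⟩ c]
    exact h4 k _ _ (Setup.conj_mem_BB (mul_mem (inv_mem (pow_mem hn k)) hr) hc)
      (by simp [hc', mul_assoc])
  · have h12 : l.comp φ ≠ (l.comp φ).comp φ := fun h => h01 (by rw [h, h, h3])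
    have h20 : (l.comp φ).comp φ ≠ l := fun h => h01 (by rw [← h, h3, h])
    have f₀ : β₀.comp σ.ιB = l := MonoidHom.ext e₀
    have f₁ : β₁.comp σ.ιB = l.comp φ := MonoidHom.ext e₁
    have f₂ : β₂.comp σ.ιB = (l.comp φ).comp φ := MonoidHom.ext e₂
    refine Or.inr fun r hr hr2 hk => Setup.Tri.dvd_J hna (n := n) (β := ![β₀, β₁, β₂])
      ⟨hm, hn1, hn2, fun i => ?_, fun i => ?_, fun i j hij => ?_⟩ hr hr2 hk
    · fin_cases i
      exacts [h₀, h₁, h₂]
    · fin_cases i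
      exacts [hstep e₀ e₁, hstep e₁ e₂, hstep e₂ fun c => by rw [h3]; exact e₀ c]
    · fin_cases i <;> fin_cases j
      exacts [rfl, absurd (f₁.symm.trans (hij.symm.trans f₀)) h01,
        absurd (f₂.symm.trans (hij.symm.trans f₀)) h20, absurd (f₁.symm.trans (hij.trans f₀)) h01,
        rfl, absurd (f₁.symm.trans (hij.trans f₂)) h12, absurd (f₂.symm.trans (hij.trans f₀)) h20,
        absurd (f₁.symm.trans (hij.symm.trans f₂)) h12, rfl]

end Cfsg.Lib.GW
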